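import Cfsg.Agent.Lib.RuBridge.NegT

/-!
# The lattice of the Rudvalis group: minus one is a product of commutators
-/

set_option autoImplicit false
set_option linter.unusedSectionVars false
set_option linter.constructorNameAsVariable false

namespace Cfsg.Agent.Lib.RuBridge

open Cfsg.Spor Cfsg.Agent.Lib.RuLat Equiv NegT
open scoped commutatorElement

/-- A permutation of the lattice given by a matrix. -/
def Rep (f : Perm ruLattice) (G : ℕ → ℕ) : Prop :=
  ∀ v : ruLattice, g4 • ((f v : ruLattice) : RuVec) = matL G (v : RuVec)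

theorem rep_permG {G H cG cH : ℕ → ℕ} (hM : MatOK G H cG cH) : Rep (permG hM) G := fun v =>
  ((matD_spec hM.latG (mem_W_iff.1 v.2)).2).symm

theorem rep_permG_inv {G H cG cH : ℕ → ℕ} (hM : MatOK G H cG cH) : Rep (permG hM)⁻¹ H := fun v =>
  ((matD_spec hM.latH (mem_W_iff.1 v.2)).2).symm

theorem matL_sum (G : ℕ → ℕ) (s : Finset ℕ) (f : ℕ → RuVec) : matL G (∑ q ∈ s, f q) = ∑ q ∈ s, matL G (f q) := by
  classical
  induction s using Finset.induction_on with
  | empty => simp [matL_zero]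
  | insert a s ha ih => rw [Finset.sum_insert ha, Finset.sum_insert ha, matL_add, ih]

theorem matL_of_rows {G1 G2 G12 : ℕ → ℕ}
    (h : ∀ r p : Fin 28, sumQ (fun q => vecN (G2 r) (ixOf q) * vecN (G1 q) (ixOf p)) = g4 * vecN (G12 r) (ixOf p))
    (x : RuVec) : matL G1 (matL G2 x) = g4 • matL G12 x := by
  have h1 : ∀ r : ℕ, r < 28 → matL G1 (vecN (G2 r)) = g4 • vecN (G12 r) := by
    intro r hr
    funext p
    rw [matL_apply_eq]
    have h2 := h ⟨r, hr⟩ ⟨ixN p, ixN_lt p⟩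
    simp only at h2
    rw [ixOf_ixN] at h2
    exact h2
  rw [matL_eq_sum G2, matL_sum, matL_eq_sum G12, Finset.smul_sum]
  apply Finset.sum_congr rfl
  intro q hq
  rw [matL_smul, h1 q (Finset.mem_range.1 hq), smul_comm]

theorem Rep.mul {f1 f2 : Perm ruLattice} {G1 G2 G12 : ℕ → ℕ} (h1 : Rep f1 G1) (h2 : Rep f2 G2)
    (h : ∀ r p : Fin 28, sumQ (fun q => vecN (G2 r) (ixOf q) * vecN (G1 q) (ixOf p)) = g4 * vecN (G12 r) (ixOf p)) :
    Rep (f1 * f2) G12 := by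
  intro v
  apply g4_smul_inj
  rw [← matL_of_rows h, ← h2 v, matL_smul, ← h1 (f2 v)]
  rfl

theorem rep_neg {f : Perm ruLattice} {G : ℕ → ℕ} (h : Rep f G)
    (hG : ∀ q p : Fin 28, vecN (G q) (ixOf p) = if p = q then ⟨-4, 0⟩ else 0) (v : ruLattice) :
    ((f v : ruLattice) : RuVec) = iP 2 • (v : RuVec) := by
  apply g4_smul_inj
  rw [h v]
  funext p
  rw [matL_apply_eq]
  have h1 : ∀ q : ℕ, q ∈ Finset.range 28 → (v : RuVec) (ixOf q) * vecN (G q) p = if q = ixN p then (v : RuVec) (ixOf q) * ⟨-4, 0⟩ else 0 := by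
    intro q hq
    have hq' := Finset.mem_range.1 hq
    have h2 := hG ⟨q, hq'⟩ ⟨ixN p, ixN_lt p⟩
    simp only [Fin.mk.injEq] at h2
    rw [ixOf_ixN] at h2
    rw [h2]
    by_cases e : q = ixN p
    · rw [if_pos e, if_pos e.symm]
    · rw [if_neg e, if_neg (Ne.symm e), mul_zero]
  rw [sumQ_range, Finset.sum_congr rfl h1, Finset.sum_ite_eq' (Finset.range 28) (ixN p), if_pos (Finset.mem_range.2 (ixN_lt p)), ixOf_ixN]
  show _ = g4 * (iP 2 * (v : RuVec) p)
  have e : iP 2 = ⟨-1, 0⟩ := rfl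
  rw [e, ← mul_assoc, mul_comm]
  congr 1

/-- The matrix conditions of the letters used. -/
theorem ok0 : MatOK Let0.G Let0.H Let0.cG Let0.cH := ⟨Let0.orth, Let0.invG, Let0.invH, Let0.latG, Let0.latH⟩

theorem ok1 : MatOK Let1.G Let1.H Let1.cG Let1.cH := ⟨Let1.orth, Let1.invG, Let1.invH, Let1.latG, Let1.latH⟩

theorem ok3 : MatOK Let3.G Let3.H Let3.cG Let3.cH := ⟨Let3.orth, Let3.invG, Let3.invH, Let3.latG, Let3.latH⟩

/-- An automorphism. -/
def f0 : fourRu := ⟨permG ok0, permG_mem ok0⟩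

/-- An automorphism. -/
def f1 : fourRu := ⟨permG ok1, permG_mem ok1⟩

/-- An automorphism. -/
def f3 : fourRu := ⟨permG ok3, permG_mem ok3⟩

/-- A commutator. -/
def cN : fourRu := f0 * f1 * (f0 * f3) * (f0 * f1)⁻¹ * (f0 * f3)⁻¹

theorem rep_a : Rep (f0 * f1).1 Ma := (rep_permG ok0).mul (rep_permG ok1) s_a

theorem rep_b : Rep (f0 * f3).1 Mb := (rep_permG ok0).mul (rep_permG ok3) s_b

theorem rep_ai : Rep ((f0 * f1)⁻¹).1 Mai := by
  have h : ((f0 * f1)⁻¹ : fourRu).1 = (permG ok1)⁻¹ * (permG ok0)⁻¹ := by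
    show (permG ok0 * permG ok1)⁻¹ = _
    rw [mul_inv_rev]
  rw [h]
  exact (rep_permG_inv ok1).mul (rep_permG_inv ok0) s_ai

theorem rep_bi : Rep ((f0 * f3)⁻¹).1 Mbi := by
  have h : ((f0 * f3)⁻¹ : fourRu).1 = (permG ok3)⁻¹ * (permG ok0)⁻¹ := by
    show (permG ok0 * permG ok3)⁻¹ = _
    rw [mul_inv_rev]
  rw [h]
  exact (rep_permG_inv ok3).mul (rep_permG_inv ok0) s_bi

theorem rep_c : Rep cN.1 Mc := ((rep_a.mul rep_b s_ab).mul rep_ai s_aba).mul rep_bi s_c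

theorem rep_c2 : Rep (cN ^ 2).1 Mc2 := by
  rw [pow_two]
  exact rep_c.mul rep_c s_c2

theorem rep_c3 : Rep (cN ^ 3).1 Mc3 := by
  rw [pow_succ]
  exact rep_c2.mul rep_c s_c3

theorem rep_c6 : Rep (cN ^ 6).1 Mc6 := by
  rw [show (6 : ℕ) = 3 + 3 from rfl, pow_add]
  exact rep_c3.mul rep_c3 s_c6

theorem rep_c7 : Rep (cN ^ 7).1 Mc7 := by
  rw [pow_succ]
  exact rep_c6.mul rep_c s_c7

theorem rep_c14 : Rep (cN ^ 14).1 Mc14 := by
  rw [show (14 : ℕ) = 7 + 7 from rfl, pow_add]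
  exact rep_c7.mul rep_c7 s_c14

theorem cN_pow : cN ^ 14 = sI ^ 2 := by
  apply Subtype.ext
  ext v : 1
  apply Subtype.ext
  rw [sI_pow]
  exact rep_neg rep_c14 last_ok v

/-- Minus one, the square of the scalar `i`, lies in the commutator subgroup. -/
theorem neg_one_mem_commutator : sI ^ 2 ∈ commutator fourRu := by
  rw [← cN_pow]
  apply Subgroup.pow_mem
  have h : cN = ⁅f0 * f1, f0 * f3⁆ := rfl
  rw [h]
  exact Subgroup.commutator_mem_commutator (Subgroup.mem_top _) (Subgroup.mem_top _)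

end Cfsg.Agent.Lib.RuBridge
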